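import Mathlib
import Cfsg.Agent.Lib.TwoFusion.Isolated

/-! Counting conjugates of an isolated involution. -/

set_option autoImplicit false

namespace H41

variable {G : Type*} [Group G]

/-- Orbit-stabilizer for conjugation. -/
theorem card_centralizer_mul_card_isConj (z : G) :
    Nat.card (Subgroup.centralizer ({z} : Set G)) * Nat.card {u : G // IsConj z u} = Nat.card G := by
  rw [← (Subgroup.centralizer ({z} : Set G)).card_mul_index]
  congr 1
  symm
  refine Nat.card_congr (Equiv.ofBijective (fun q => Quotient.liftOn' q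
    (fun g => ⟨g * z * g⁻¹, isConj_iff.2 ⟨g, rfl⟩⟩) ?_) ⟨?_, ?_⟩)
  · intro a b hab
    rw [QuotientGroup.leftRel_apply, Subgroup.mem_centralizer_singleton_iff] at hab
    apply Subtype.ext
    show a * z * a⁻¹ = b * z * b⁻¹
    calc a * z * a⁻¹ = a * (z * (a⁻¹ * b)) * b⁻¹ := by group
      _ = b * z * b⁻¹ := by rw [← hab]; group
  · intro p q
    refine Quotient.inductionOn₂' p q fun a b hab => ?_
    have h : a * z * a⁻¹ = b * z * b⁻¹ := congrArg Subtype.val hab
    apply Quotient.sound'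
    rw [QuotientGroup.leftRel_apply, Subgroup.mem_centralizer_singleton_iff]
    calc a⁻¹ * b * z = a⁻¹ * (b * z * b⁻¹) * b := by group
      _ = z * (a⁻¹ * b) := by rw [← h]; group
  · rintro ⟨u, hu⟩
    obtain ⟨g, rfl⟩ := isConj_iff.1 hu
    exact ⟨Quotient.mk'' g, rfl⟩

theorem index_centralizer_eq_card_isConj [Finite G] (z : G) :
    (Subgroup.centralizer ({z} : Set G)).index = Nat.card {u : G // IsConj z u} := by
  have h := card_centralizer_mul_card_isConj z
  rw [← (Subgroup.centralizer ({z} : Set G)).card_mul_index] at h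
  exact (Nat.eq_of_mul_eq_mul_left Nat.card_pos h).symm

namespace Isolated

open Cfsg

variable {z : G}

/-- Odd order elements inverted by `z` correspond to conjugates of `z`. -/
theorem card_inverted_eq [Finite G] (hz : IsIsolatedInvolution z) {w : G} (hw : Commute z w) :
    Nat.card {k : G // Odd (orderOf k) ∧ z * k * z⁻¹ = k⁻¹ ∧ Commute k w} =
      Nat.card {u : G // IsConj z u ∧ Commute u w} := by
  have hz2 := mul_self hz
  refine Nat.card_congr (Equiv.ofBijective (fun k => ⟨k.1 * k.1 * z, ?_, ?_⟩) ⟨?_, ?_⟩)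
  · obtain ⟨k, h1, h2, h3⟩ := k
    refine isConj_iff.2 ⟨k, ?_⟩
    show k * z * k⁻¹ = k * k * z
    rw [← h2, inv_eq hz]
    calc k * z * (z * k * z) = k * (z * z) * k * z := by group
      _ = _ := by rw [hz2, mul_one]
  · exact (k.2.2.2.mul_left k.2.2.2).mul_left hw
  · intro a b hab
    have h : a.1 * a.1 * z = b.1 * b.1 * z := congrArg Subtype.val hab
    exact Subtype.ext (eq_of_sq_eq_of_odd a.2.1 b.2.1 (mul_right_cancel h))
  · rintro ⟨u, hu, huw⟩
    have hodd := odd_orderOf_mul hz hu (IsConj.refl z)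
    obtain ⟨m, hm⟩ := exists_eq_sq_pow_of_odd hodd
    refine ⟨⟨(u * z) ^ m, odd_orderOf_pow hodd m, ?_, (huw.mul_left hw).pow_left m⟩, ?_⟩
    · rw [invol_mul_pow' (mul_self (of_isConj hz hu)) hz2]; group
    · apply Subtype.ext
      show (u * z) ^ m * (u * z) ^ m * z = u
      rw [← (Commute.refl (u * z)).mul_pow, ← hm, mul_assoc, hz2, mul_one]

theorem exists_commute_mul [Finite G] (hz : IsIsolatedInvolution z) {s u : G} (hs : s * s = 1)
    (hu : IsConj z u) : ∃ v : G, IsConj z v ∧ Commute v s ∧ Commute u (s * v) := by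
  have hu2 := mul_self (of_isConj hz hu)
  rcases Nat.even_or_odd (orderOf (u * s)) with ⟨m, hm⟩ | hodd
  · have hpos := orderOf_pos (u * s)
    have h1 : (u * s) ^ (2 * m) = 1 := by rw [two_mul, ← hm, pow_orderOf_eq_one]
    obtain ⟨hcu, hcs⟩ := commute_of_pow_two_mul hu2 hs h1
    rcases Nat.even_or_odd' m with ⟨k, rfl | rfl⟩
    · exfalso
      have h2 : IsConj z ((u * s) ^ (2 * k) * u) := by
        rw [pow_two_mul_invol hu2 hs]
        exact hu.trans (isConj_iff.2 ⟨_, rfl⟩)
      have h3 := eq_of_commute hz hu h2 (hcu.mul_right (Commute.refl u))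
      have h4 : (u * s) ^ (2 * k) = 1 := by simpa using h3
      have := Nat.le_of_dvd (by omega) (orderOf_dvd_of_pow_eq_one h4)
      omega
    · refine ⟨(u * s) ^ (2 * k + 1) * s, ?_, hcs.symm.mul_left (Commute.refl s), ?_⟩
      · rw [pow_odd_mul_invol' hu2 hs]
        exact hu.trans (isConj_iff.2 ⟨_, rfl⟩)
      · rw [← mul_assoc, hcs.eq, mul_assoc, hs, mul_one]
        exact hcu
  · obtain ⟨k, hk⟩ := exists_pow_conj_of_odd hu2 hs hodd
    refine ⟨s, hu.trans (isConj_iff.2 ⟨_, hk⟩).symm, Commute.refl s, ?_⟩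
    rw [hs]; exact Commute.one_right u

theorem eq_of_commute_mul [Finite G] (hz : IsIsolatedInvolution z) {s u v w : G} (hs : s * s = 1)
    (hu : IsConj z u) (hv : IsConj z v) (hw : IsConj z w) (hvs : Commute v s) (hws : Commute w s)
    (huv : Commute u (s * v)) (huw : Commute u (s * w)) : v = w := by
  have key : ∀ v : G, IsConj z v → Commute v s → Commute u (s * v) → ∀ m : ℕ, Odd m →
      orderOf (u * v) ∣ m → (u * s) ^ m = s * v := by
    intro v hv hvs huv m hm hd
    have hv2 := mul_self (of_isConj hz hv)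
    have h1 : u * s = (u * v) * (s * v) := by
      rw [← hvs.eq, mul_assoc, ← mul_assoc v, hv2, one_mul]
    have h2 : Commute (u * v) (s * v) := huv.mul_left (hvs.mul_right (Commute.refl v))
    have h3 : (s * v) ^ 2 = 1 := by rw [hvs.symm.mul_pow, pow_two, pow_two, hs, hv2, one_mul]
    obtain ⟨k, rfl⟩ := hm
    rw [h1, h2.mul_pow, orderOf_dvd_iff_pow_eq_one.1 hd, one_mul, pow_succ, pow_mul, h3, one_pow,
      one_mul]
  have hodd := (odd_orderOf_mul hz hu hv).mul (odd_orderOf_mul hz hu hw)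
  have h1 := key v hv hvs huv _ hodd (dvd_mul_right _ _)
  have h2 := key w hw hws huw _ hodd (dvd_mul_left _ _)
  exact mul_left_cancel (h1.symm.trans h2)

/-- The number of conjugates of `z` factors along an element `s` with `s ^ 2 = 1` commuting with `z`. -/
theorem card_isConj_eq_mul [Finite G] (hz : IsIsolatedInvolution z) {s : G} (hs : s * s = 1)
    (hsz : Commute s z) :
    Nat.card {u : G // IsConj z u} = Nat.card {u : G // IsConj z u ∧ Commute u (s * z)} *
      Nat.card {u : G // IsConj z u ∧ Commute u s} := by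
  have hc : ∀ v : {u : G // IsConj z u ∧ Commute u s}, ∃ c : G, Commute c s ∧ c * z * c⁻¹ = v := by
    rintro ⟨v, hv, hvs⟩
    obtain ⟨k, hk⟩ := exists_pow_conj hz hv (IsConj.refl z)
    exact ⟨_, (hvs.mul_left hsz.symm).pow_left k, hk⟩
  choose c hcs hcz using hc
  have key : ∀ (v : {u : G // IsConj z u ∧ Commute u s}) (x : G),
      Commute (c v * x * (c v)⁻¹) (s * v) ↔ Commute x (s * z) := by
    intro v x
    have : s * v = c v * (s * z) * (c v)⁻¹ := by
      rw [← hcz v, ← mul_assoc, ← mul_assoc, ← (hcs v).eq, mul_assoc (c v)]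
    rw [this]
    exact Commute.conj_iff (c v)
  rw [← Nat.card_prod]
  symm
  refine Nat.card_congr (Equiv.ofBijective (fun p => ⟨c p.2 * p.1.1 * (c p.2)⁻¹,
    p.1.2.1.trans (isConj_iff.2 ⟨_, rfl⟩)⟩) ⟨?_, ?_⟩)
  · rintro ⟨a, v⟩ ⟨b, w⟩ hab
    have h : c v * a.1 * (c v)⁻¹ = c w * b.1 * (c w)⁻¹ := congrArg Subtype.val hab
    have h1 := (key v a).2 a.2.2
    have h2 := (key w b).2 b.2.2
    rw [← h] at h2
    have h3 : v = w := Subtype.ext (eq_of_commute_mul hz hs
      (a.2.1.trans (isConj_iff.2 ⟨_, rfl⟩)) v.2.1 w.2.1 v.2.2 w.2.2 h1 h2)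
    subst h3
    rw [mul_left_inj, mul_right_inj] at h
    rw [Subtype.ext h]
  · rintro ⟨u, hu⟩
    obtain ⟨v, hv, hvs, huv⟩ := exists_commute_mul hz hs hu
    refine ⟨⟨⟨(c ⟨v, hv, hvs⟩)⁻¹ * u * (c ⟨v, hv, hvs⟩)⁻¹⁻¹, hu.trans (isConj_iff.2 ⟨_, rfl⟩), ?_⟩,
      ⟨v, hv, hvs⟩⟩, Subtype.ext ?_⟩
    · rw [← key ⟨v, hv, hvs⟩]
      convert huv using 1
      group
    · show c _ * (_ * u * _) * _ = u
      group

end Isolated

end H41
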